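import Cfsg.Agent.Lib.TC.Data.Suz1782.Arr
import Cfsg.Agent.Lib.TC.Data.Suz1782.K0
import Cfsg.Agent.Lib.TC.Data.Suz1782.P0

set_option autoImplicit false

namespace Cfsg.Agent.Lib.TC.Data.Suz1782

open Cfsg.Agent.Lib.TC

open Cfsg.Spor Cfsg.Spor.Suz

theorem doneK : Done Fk 61696 := by
  have h0 := Done.zero Fk
  have h1 : Done Fk 61696 := Done.step h0 K0_ok rfl
  exact h1

theorem doneP : Done Fp 1782 := by
  have h0 := Done.zero Fp
  have h1 : Done Fp 1782 := Done.step h0 P0_ok rfl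
  exact h1

def subsL : List (FreeGroup Gen) := [a,b,c,d,e,f]

theorem hsubs (s : FreeGroup Gen) : s ∈ ({a,b,c,d,e,f} : Set (FreeGroup Gen)) ↔ s ∈ subsL := by
  simp [subsL]

theorem hsubW : subW = subsL.map (encW G.Suz.sys.code G.Suz.sys.inv) := by decide +kernel

noncomputable def A : SubWords G.Suz.sys ({a,b,c,d,e,f} : Set (FreeGroup Gen)) :=
  G.Suz.sys.subWordsOfList subsL subW hsubW hsubs

theorem hLL : ∀ w ∈ G.Suz.relWords, w ∈ rR ∨ rotR w ∈ rR ∨ isPseudo 7 G.Suz.inv w = true := by decide +kernel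

theorem hrelW : ∀ w ∈ words.take 33, isPseudo 7 G.Suz.inv w = true ∨ w ∈ G.Suz.relWords := by decide +kernel

theorem hsubD : ∀ w ∈ words.drop 33, w ∈ subW := by decide +kernel

theorem hlett : ∀ w ∈ words, ∀ g ∈ w, g < 8 := by decide +kernel

theorem hwlS : ∀ j, j < 6 → wordAt wordsL j ∈ subW := by decide +kernel

theorem hwlL : ∀ j, j < 13 → ∀ g ∈ wordAt wordsL j, g < 7 := by decide +kernel

theorem hzero : relsOk tT subW 0 = true := by decide +kernel

theorem hnm0 : aN 0 = 0 := by decide +kernel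

noncomputable def checked : Sys.Checked G.Suz.sys ({a,b,c,d,e,f} : Set (FreeGroup Gen)) cert where
  n := 1782
  T := tT
  R := rR
  words := words
  nm := aN
  A := A
  WL := wordAt wordsL
  nsub := 6
  nW := 13
  par := par
  gw := gw
  ivs := ivs
  hF := doneP
  hn := by decide
  hL := fun r hr => hLL _ (G.Suz.mem_relWords hr)
  hW := rfl
  hep := rfl
  hsz := rfl
  hnW := by decide +kernel
  hnrel := by decide +kernel
  hletters := hlett
  hrel := fun w hw => (hrelW w hw).imp id G.Suz.of_mem_relWords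
  hsub := hsubD
  hE := fun k hk => guard_zero 61696 _ k hk
  hcheck := doneK
  hnm0 := hnm0
  hWLs := hwlS
  hWLl := hwlL
  h0 := hzero

end Cfsg.Agent.Lib.TC.Data.Suz1782
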